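import Mathlib
import Cfsg.Agent.Inv.Isolated

/-!
# Counting with an isolated involution

For an isolated involution `z`: the index of `C(z)` in a `z`-invariant subgroup is the number of
its elements of odd order inverted by `z`, and the product formula for the class of `z`.
-/

set_option autoImplicit false

namespace Cfsg.Agent.Inv

variable {G : Type*} [Group G]

/-- If `k` is inverted by `z` and lies in the coset `g C(z)`, then `k ^ 2` is determined by `g`. -/
theorem sq_eq_of_inverted {z g k : G} (h1 : z * k * z⁻¹ = k⁻¹) (h2 : Commute (g⁻¹ * k) z) :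
    k ^ 2 = g * z * g⁻¹ * z⁻¹ := by
  have h3 := pow_conj_of_inverts h1 1
  simp only [pow_one, mul_one] at h3
  have h4 : k * z * k⁻¹ = g * z * g⁻¹ := by
    calc k * z * k⁻¹ = g * (g⁻¹ * k * z) * k⁻¹ := by group
      _ = g * (z * (g⁻¹ * k)) * k⁻¹ := by rw [h2.eq]
      _ = _ := by group
  rw [← h4, h3]; group

/-- For `g` in a `z`-invariant subgroup `H` there is `k ∈ H` of odd order inverted by `z`
in the coset `g C(z)`. -/
theorem isolated_exists_inverted [Finite G] {z : G} (hz : IsIsolatedInvolution z)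
    {H : Subgroup G} (hzH : z ∈ Subgroup.normalizer (H : Set G)) {g : G} (hg : g ∈ H) :
    ∃ k ∈ H, Odd (orderOf k) ∧ z * k * z⁻¹ = k⁻¹ ∧ Commute (g⁻¹ * k) z := by
  have hz2 := isolated_mul_self hz
  have ht : IsConj z (g * z * g⁻¹) := isConj_iff.2 ⟨g, rfl⟩
  obtain ⟨k, hk⟩ := isolated_exists_pow_conj hz (IsConj.refl z) ht
  refine ⟨(z * (g * z * g⁻¹)) ^ k, H.pow_mem ?_ k, ?_, ?_, ?_⟩
  · have h1 := H.mul_mem ((Subgroup.mem_normalizer_iff.1 hzH g).1 hg) (H.inv_mem hg)
    rw [isolated_inv hz] at h1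
    have e : z * (g * z * g⁻¹) = z * g * z * g⁻¹ := by group
    rw [e]; exact h1
  · exact odd_orderOf_pow (isolated_odd_orderOf_mul_conj hz g) k
  · exact conj_pow_of_inverts (invol_conj_mul hz2 (conj_mul_self hz2 g)) k
  · rw [Commute, SemiconjBy]
    set u := (z * (g * z * g⁻¹)) ^ k
    calc g⁻¹ * u * z = g⁻¹ * (u * z * u⁻¹) * u := by group
      _ = z * (g⁻¹ * u) := by rw [hk]; group

/-- The index of `C(z)` in a `z`-invariant subgroup `H` is the number of elements of `H` of odd
order inverted by `z`. -/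
theorem isolated_relIndex_eq [Finite G] {z : G} (hz : IsIsolatedInvolution z)
    {H : Subgroup G} (hzH : z ∈ Subgroup.normalizer (H : Set G)) :
    (Subgroup.centralizer ({z} : Set G)).relIndex H =
      Nat.card {k : G // Odd (orderOf k) ∧ z * k * z⁻¹ = k⁻¹ ∧ k ∈ H} := by
  rw [Subgroup.relIndex, Subgroup.index]
  symm
  let f : {k : G // Odd (orderOf k) ∧ z * k * z⁻¹ = k⁻¹ ∧ k ∈ H} →
      H ⧸ (Subgroup.centralizer ({z} : Set G)).subgroupOf H :=
    fun k => QuotientGroup.mk ⟨k.1, k.2.2.2⟩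
  refine Nat.card_eq_of_bijective f ⟨?_, ?_⟩
  · rintro ⟨a, ha1, ha2, ha3⟩ ⟨b, hb1, hb2, hb3⟩ hab
    have h1 := QuotientGroup.eq.1 hab
    rw [Subgroup.mem_subgroupOf, Subgroup.mem_centralizer_singleton_iff] at h1
    apply Subtype.ext
    apply eq_of_sq_eq_of_odd ha1 hb1
    rw [sq_eq_of_inverted (g := a) hb2 h1, sq_eq_of_inverted (g := a) ha2 (by simp)]
  · intro x
    obtain ⟨g, rfl⟩ := QuotientGroup.mk_surjective x
    obtain ⟨k, hk, h1, h2, h3⟩ := isolated_exists_inverted hz hzH g.2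
    refine ⟨⟨k, h1, h2, hk⟩, ?_⟩
    symm
    apply QuotientGroup.eq.2
    rw [Subgroup.mem_subgroupOf, Subgroup.mem_centralizer_singleton_iff]
    exact h3

/-- In a subgroup containing `z`, elements of odd order inverted by `z` correspond to conjugates
of `z`. -/
theorem isolated_card_inverted_eq [Finite G] {z : G} (hz : IsIsolatedInvolution z)
    {H : Subgroup G} (hzH : z ∈ H) :
    Nat.card {k : G // Odd (orderOf k) ∧ z * k * z⁻¹ = k⁻¹ ∧ k ∈ H} =
      Nat.card {t : G // IsConj z t ∧ t ∈ H} := by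
  have hz2 := isolated_mul_self hz
  let f : {k : G // Odd (orderOf k) ∧ z * k * z⁻¹ = k⁻¹ ∧ k ∈ H} → {t : G // IsConj z t ∧ t ∈ H} :=
    fun k => ⟨k.1 * z * k.1⁻¹, isConj_iff.2 ⟨_, rfl⟩,
      H.mul_mem (H.mul_mem k.2.2.2 hzH) (H.inv_mem k.2.2.2)⟩
  refine Nat.card_eq_of_bijective f ⟨?_, ?_⟩
  · rintro ⟨a, ha1, ha2, ha3⟩ ⟨b, hb1, hb2, hb3⟩ hab
    have h1 : a * z * a⁻¹ = b * z * b⁻¹ := congrArg Subtype.val hab
    apply Subtype.ext
    apply eq_of_sq_eq_of_odd ha1 hb1
    rw [sq_eq_of_inverted (g := a) ha2 (by simp), sq_eq_of_inverted (g := b) hb2 (by simp), h1]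
  · rintro ⟨t, ht, htH⟩
    obtain ⟨k, hk⟩ := isolated_exists_pow_conj hz (IsConj.refl z) ht
    refine ⟨⟨(z * t) ^ k, ?_, ?_, H.pow_mem (H.mul_mem hzH htH) k⟩, Subtype.ext hk⟩
    · exact odd_orderOf_pow (isolated_odd_orderOf_mul hz (IsConj.refl z) ht) k
    · exact conj_pow_of_inverts (invol_conj_mul hz2 (isolated_mul_self (isolated_of_isConj hz ht))) k

theorem isolated_relIndex_eq_card_conj [Finite G] {z : G} (hz : IsIsolatedInvolution z)
    {H : Subgroup G} (hzH : z ∈ H) :
    (Subgroup.centralizer ({z} : Set G)).relIndex H = Nat.card {t : G // IsConj z t ∧ t ∈ H} := by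
  rw [isolated_relIndex_eq hz (Subgroup.le_normalizer hzH), isolated_card_inverted_eq hz hzH]

/-- For a conjugate `t` of `z` and `s` of square one commuting with `z` there is a conjugate `y` of
`z` commuting with `s` such that `t` commutes with `s y`. -/
theorem isolated_exists_partner [Finite G] {z s t : G} (hz : IsIsolatedInvolution z)
    (hs : s * s = 1) (ht : IsConj z t) :
    ∃ y : G, IsConj z y ∧ Commute y s ∧ Commute t (s * y) := by
  have hti := isolated_of_isConj hz ht
  have ht2 := isolated_mul_self hti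
  rcases Nat.even_or_odd (orderOf (s * t)) with ⟨m, hm⟩ | hodd
  · have hpos : 0 < orderOf (s * t) := orderOf_pos _
    have h4 := isolated_not_four_dvd hs hti
    obtain ⟨k, hk⟩ : Odd m := by
      by_contra h
      obtain ⟨k, hk⟩ := Nat.not_odd_iff_even.1 h
      exact h4 ⟨k, by omega⟩
    obtain ⟨-, -, h3, h4⟩ := half_pow_facts hs ht2 (m := 2 * k + 1) (by omega) (by omega)
    refine ⟨(s * t) ^ (2 * k + 1) * s, ?_, h3.mul_left (Commute.refl s), ?_⟩
    · rw [← invol_pow_conj_odd_left hs ht2]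
      exact ht.trans (isConj_iff.2 ⟨_, rfl⟩)
    · rw [h3.eq, ← mul_assoc, hs, one_mul]
      exact h4.symm
  · obtain ⟨k, hk⟩ := exists_pow_conj_of_odd hs ht2 hodd
    refine ⟨s, ht.trans (isConj_iff.2 ⟨_, hk⟩).symm, Commute.refl s, ?_⟩
    rw [hs]
    exact Commute.one_right t

theorem isolated_partner_unique [Finite G] {z s t y y' : G} (hz : IsIsolatedInvolution z)
    (hs : s * s = 1) (ht : IsConj z t) (hy : IsConj z y) (hy' : IsConj z y')
    (h1 : Commute y s) (h2 : Commute t (s * y)) (h1' : Commute y' s) (h2' : Commute t (s * y')) :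
    y = y' := by
  have key : ∀ y : G, IsConj z y → Commute y s → Commute t (s * y) → ∀ n : ℕ, Odd n →
      orderOf (y * t) ∣ n → (s * t) ^ n = s * y := by
    intro y hy h1 h2 n hn hd
    have hy2 := isolated_mul_self (isolated_of_isConj hz hy)
    have e : s * t = (s * y) * (y * t) := by
      rw [mul_assoc, ← mul_assoc y, hy2, one_mul]
    have hc : Commute (s * y) (y * t) :=
      (h1.symm.mul_left (Commute.refl y)).mul_right h2.symm
    have hw : (s * y) * (s * y) = 1 := by
      calc (s * y) * (s * y) = s * (y * s) * y := by group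
        _ = (s * s) * (y * y) := by rw [h1.eq]; group
        _ = 1 := by rw [hs, hy2, one_mul]
    obtain ⟨k, rfl⟩ := hn
    rw [e, hc.mul_pow, orderOf_dvd_iff_pow_eq_one.1 hd, mul_one, pow_succ, pow_mul, pow_two, hw,
      one_pow, one_mul]
  have ho := isolated_odd_orderOf_mul hz hy ht
  have ho' := isolated_odd_orderOf_mul hz hy' ht
  have e1 := key y hy h1 h2 _ (ho.mul ho') (dvd_mul_right _ _)
  have e2 := key y' hy' h1' h2' _ (ho.mul ho') (dvd_mul_left _ _)
  rw [e1] at e2
  exact mul_left_cancel e2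

/-- The product formula for the conjugacy class of an isolated involution. -/
theorem isolated_card_conj_eq_mul [Finite G] {z s : G} (hz : IsIsolatedInvolution z)
    (hs : s * s = 1) (hsz : Commute s z) :
    Nat.card {t : G // IsConj z t} =
      Nat.card {t : G // IsConj z t ∧ t ∈ Subgroup.centralizer ({s * z} : Set G)} *
        Nat.card {t : G // IsConj z t ∧ t ∈ Subgroup.centralizer ({s} : Set G)} := by
  have hc : ∀ y : {t : G // IsConj z t ∧ t ∈ Subgroup.centralizer ({s} : Set G)},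
      ∃ c : G, Commute c s ∧ c * z * c⁻¹ = y := by
    rintro ⟨y, hy, hys⟩
    rw [Subgroup.mem_centralizer_singleton_iff] at hys
    obtain ⟨k, hk⟩ := isolated_exists_pow_conj hz (IsConj.refl z) hy
    exact ⟨_, (hsz.symm.mul_left hys).pow_left k, hk⟩
  choose c hc1 hc2 using hc
  rw [← Nat.card_prod]
  symm
  let f : {t : G // IsConj z t ∧ t ∈ Subgroup.centralizer ({s * z} : Set G)} ×
      {t : G // IsConj z t ∧ t ∈ Subgroup.centralizer ({s} : Set G)} → {t : G // IsConj z t} :=
    fun x => ⟨c x.2 * x.1 * (c x.2)⁻¹, x.1.2.1.trans (isConj_iff.2 ⟨_, rfl⟩)⟩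
  have hf : ∀ x, Commute (f x : G) (s * x.2) := by
    rintro ⟨⟨t, ht, hts⟩, y⟩
    rw [Subgroup.mem_centralizer_singleton_iff] at hts
    have h1 : Commute t (s * z) := hts
    have h2 := h1.map (MulAut.conj (c y))
    simp only [MulAut.conj_apply] at h2
    have e : c y * (s * z) * (c y)⁻¹ = s * y := by
      rw [← hc2 y, ← mul_assoc, (hc1 y).eq]; group
    rw [e] at h2
    exact h2
  refine Nat.card_eq_of_bijective f ⟨?_, ?_⟩
  · rintro ⟨t, y⟩ ⟨t', y'⟩ h
    have h1 := hf ⟨t, y⟩
    have h2 := hf ⟨t', y'⟩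
    rw [← h] at h2
    have h3 : y = y' := by
      apply Subtype.ext
      exact isolated_partner_unique hz hs (f ⟨t, y⟩).2 y.2.1 y'.2.1
        (Subgroup.mem_centralizer_singleton_iff.1 y.2.2) h1
        (Subgroup.mem_centralizer_singleton_iff.1 y'.2.2) h2
    subst h3
    have h4 : c y * t * (c y)⁻¹ = c y * t' * (c y)⁻¹ := congrArg Subtype.val h
    have h5 : t = t' := Subtype.ext (by simpa using h4)
    rw [h5]
  · rintro ⟨t, ht⟩
    obtain ⟨y, hy, h1, h2⟩ := isolated_exists_partner hz hs ht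
    let y' : {t : G // IsConj z t ∧ t ∈ Subgroup.centralizer ({s} : Set G)} :=
      ⟨y, hy, Subgroup.mem_centralizer_singleton_iff.2 h1⟩
    refine ⟨⟨⟨(c y')⁻¹ * t * (c y')⁻¹⁻¹, ht.trans (isConj_iff.2 ⟨_, rfl⟩), ?_⟩, y'⟩, ?_⟩
    · rw [Subgroup.mem_centralizer_singleton_iff]
      have h3 := h2.map (MulAut.conj (c y')⁻¹)
      simp only [MulAut.conj_apply] at h3
      have e : (c y')⁻¹ * (s * y) * (c y')⁻¹⁻¹ = s * z := by
        have : y = c y' * z * (c y')⁻¹ := (hc2 y').symm
        rw [this, ← mul_assoc, (hc1 y').inv_left.eq]; group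
      rw [e] at h3
      exact h3
    · apply Subtype.ext
      simp [f, mul_assoc]

end Cfsg.Agent.Inv
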